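import Cfsg.Agent.H818.Gen.Defs
import Cfsg.Agent.H240.StrongP
import Cfsg.Agent.FixBN.BTheorem
import Cfsg.Agent.H522.Gen.OppGam

/-!
# S2187: the strongly `p`-embedded criterion

`NoSPLie` : the cross characteristic part of S2120 (all families, Ree groups included): `K ⊲ X` simple of Lie type in
characteristic `r ≠ p` with trivial centralizer, `p` odd, `7 ≤ p` or `r` odd, `X` has a strongly `p`-embedded subgroup ⟹ the
Sylow `p`-subgroups of `X` are cyclic.  It is a hypothesis in this file (proved in `EmbInput.lean`).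

* `Stab M` : the stabilizer of `M ≤ G` in `Aut G`;
* `normalizer_le_stab` : `N(E) ≤ Stab (Gam p E)`;
* `gam_ne_bot` : `Gam p E ≠ ⊥`;
* `false_of_ctrl` : `Inn G ≤ A ≤ Aut G`, `1 < M < G`, `P` a Sylow `p`-subgroup of `A ⊓ Stab M`, noncyclic,
  `N_A(P) ≤ Stab M` and `C_A(x) ≤ Stab M` for all `x ∈ P` of order `p`: impossible;
* `gam_of_omega` : `|E| = p ^ 2` and `E` contains all elements of order `p` of a `p`-subgroup of `Inn G * E` containing `E`
  ⟹ `Gam p E = ⊤`.
-/

set_option autoImplicit false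

namespace Cfsg.Agent.H522.Gen

open Cfsg Subgroup H818.Gen Cfsg.Agent.FixBN.BTheorem

universe u

/-- **S2120 in cross characteristic** -/
def NoSPLie : Prop :=
  ∀ (r p : ℕ) [Fact r.Prime] [Fact p.Prime], p ≠ 2 → p ≠ r → (7 ≤ p ∨ r ≠ 2) →
    ∀ (X : Type u) [Group X] [Finite X] (K : Subgroup X), K.Normal → IsSimpleGroup ↥K → ¬ IsMulCommutative ↥K →
      centralizer (K : Set X) = ⊥ → IsLieTypeChar r ↥K → ∀ H : Subgroup X, IsStronglyPEmbedded p H →
      ∀ P : Sylow p X, IsCyclic ↥(P : Subgroup X)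

section stab

variable {G : Type u} [Group G]

/-- the stabilizer of a subgroup in the automorphism group -/
def Stab (M : Subgroup G) : Subgroup (MulAut G) where
  carrier := {φ | ∀ m, φ m ∈ M ↔ m ∈ M}
  one_mem' := fun _ => Iff.rfl
  mul_mem' := fun {a b} ha hb m => (ha (b m)).trans (hb m)
  inv_mem' := fun {a} ha m => by
    have h := ha (a⁻¹ m)
    rw [MulAut.apply_inv_self] at h
    exact h.symm

theorem mem_stab {M : Subgroup G} {φ : MulAut G} : φ ∈ Stab M ↔ ∀ m, φ m ∈ M ↔ m ∈ M := Iff.rfl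

theorem conj_mem_stab {M : Subgroup G} {g : G} (hg : g ∈ M) : MulAut.conj g ∈ Stab M := by
  intro m
  rw [MulAut.conj_apply]
  constructor
  · intro h
    have h1 := M.mul_mem (M.mul_mem (M.inv_mem hg) h) hg
    have h2 : g⁻¹ * (g * m * g⁻¹) * g = m := by group
    rwa [h2] at h1
  · intro h
    exact M.mul_mem (M.mul_mem hg h) (M.inv_mem hg)

/-- a subgroup whose stabilizer contains the inner automorphisms is normal -/
theorem normal_of_inn_le {M : Subgroup G} (h : (MulAut.conj : G →* MulAut G).range ≤ Stab M) : M.Normal := by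
  refine ⟨fun m hm g => ?_⟩
  exact (h ⟨g, rfl⟩ m).2 hm

theorem normalizer_le_stab (p : ℕ) {E : Subgroup (MulAut G)} :
    normalizer (E : Set (MulAut G)) ≤ Stab (Gam p E) := by
  intro φ hφ
  have key : ∀ ψ ∈ normalizer (E : Set (MulAut G)), ∀ g ∈ Gam p E, ψ g ∈ Gam p E := by
    intro ψ hψ g hg
    refine conj_Gam (fun e he => (mem_normalizer_iff.1 hψ e).1 he) (fun e he => ?_) hg
    have h1 := (mem_normalizer_iff.1 (inv_mem hψ) e).1 he
    rwa [inv_inv] at h1
  intro m
  refine ⟨fun h => ?_, key φ hφ m⟩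
  have h1 := key φ⁻¹ (inv_mem hφ) _ h
  rwa [MulAut.inv_apply_self] at h1

theorem le_stab_gam {p : ℕ} {E : Subgroup (MulAut G)} : E ≤ Stab (Gam p E) :=
  le_normalizer.trans (normalizer_le_stab p)

end stab

section nebot

variable {G : Type u} [Group G] [Finite G] {p : ℕ} [hp : Fact p.Prime]

/-- a `p`-group of automorphisms has fixed points of order `p` -/
theorem exists_fixed {E : Subgroup (MulAut G)} (hE : IsPGroup p ↥E) (hG : p ∣ Nat.card G) :
    ∃ g : G, g ≠ 1 ∧ ∀ φ ∈ E, φ g = g := by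
  classical
  have h1 := hE.card_modEq_card_fixedPoints G
  have h2 : (MulAction.fixedPoints ↥E G).Nonempty := ⟨1, fun e => map_one (e : MulAut G)⟩
  have h3 : p ∣ Nat.card (MulAction.fixedPoints ↥E G) :=
    (Nat.modEq_zero_iff_dvd.1 (h1.symm.trans (Nat.modEq_zero_iff_dvd.2 hG)))
  have h4 : 1 < Nat.card (MulAction.fixedPoints ↥E G) := by
    have h5 : 0 < Nat.card (MulAction.fixedPoints ↥E G) := by
      have := h2.to_subtype
      exact Nat.card_pos
    exact lt_of_lt_of_le hp.out.one_lt (Nat.le_of_dvd h5 h3)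
  have h5 : Nontrivial (MulAction.fixedPoints ↥E G) := Finite.one_lt_card_iff_nontrivial.1 h4
  obtain ⟨⟨g, hg⟩, hne⟩ := exists_ne (⟨1, fun e => map_one (e : MulAut G)⟩ : MulAction.fixedPoints ↥E G)
  refine ⟨g, fun h => hne (Subtype.ext h), fun φ hφ => hg ⟨φ, hφ⟩⟩

theorem gam_ne_bot [Nontrivial G] {E : Subgroup (MulAut G)} (hE : IsElementaryAbelian p E)
    (hc : p ^ 2 ≤ Nat.card E) : Gam p E ≠ ⊥ := by
  have h1 : p ≤ Nat.card E := le_trans (by nlinarith [hp.out.one_lt]) hc
  by_cases hG : p ∣ Nat.card G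
  · obtain ⟨g, hg, hfix⟩ := exists_fixed (elab_isPGroup hE) hG
    intro h
    have h2 : g ∈ Gam p E := CF_le_Gam_of_card hE h1 hfix
    rw [h, mem_bot] at h2
    exact hg h2
  · have h2 : (⊤ : Subgroup G) ≤ Gam p E :=
      le_Gam_of_coprime hE hc (by rwa [Nat.card_congr Subgroup.topEquiv.toEquiv]) fun _ _ _ _ => mem_top _
    rw [top_le_iff.1 h2]
    exact top_ne_bot

end nebot

section main

variable {G : Type u} [Group G] [Finite G] [IsSimpleGroup G]

/-- `Inn G` in a group `A` of automorphisms containing it -/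
def InnIn (A : Subgroup (MulAut G)) : Subgroup ↥A := (MulAut.conj : G →* MulAut G).range.subgroupOf A

instance innIn_normal (A : Subgroup (MulAut G)) : (InnIn A).Normal := by
  have := range_conj_normal (K := G)
  exact this.subgroupOf A

/-- `Inn G ≅ G` in `A` -/
noncomputable def innEquiv (hna : ¬ IsMulCommutative G) {A : Subgroup (MulAut G)}
    (hA : (MulAut.conj : G →* MulAut G).range ≤ A) : G ≃* ↥(InnIn A) :=
  (MonoidHom.ofInjective (conj_injective (center_eq_bot hna))).trans (subgroupOfEquivOfLe hA).symm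

omit [Finite G] in
theorem centralizer_innIn (hna : ¬ IsMulCommutative G) {A : Subgroup (MulAut G)}
    (hA : (MulAut.conj : G →* MulAut G).range ≤ A) : centralizer (InnIn A : Set ↥A) = ⊥ := by
  rw [eq_bot_iff]
  intro x hx
  have h1 : (x : MulAut G) ∈ centralizer ((MulAut.conj : G →* MulAut G).range : Set (MulAut G)) := by
    rw [mem_centralizer_iff]
    intro y hy
    have h2 := mem_centralizer_iff.1 hx ⟨y, hA hy⟩ (by
      change _ ∈ (MulAut.conj : G →* MulAut G).range.subgroupOf A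
      exact mem_subgroupOf.2 hy)
    exact congrArg Subtype.val h2
  rw [centralizer_range_conj (center_eq_bot hna), mem_bot] at h1
  rw [mem_bot]
  exact Subtype.ext h1

/-- the Lie type class is invariant under isomorphisms -/
theorem lie_congr {r : ℕ} {X Y : Type*} [Group X] [Group Y] (e : X ≃* Y) (h : IsLieTypeChar r X) : IsLieTypeChar r Y :=
  isLieTypeChar_congr e h

/-- **The strongly `p`-embedded criterion** in a group `A` of automorphisms containing `Inn G`. -/
theorem false_of_ctrl (hN : NoSPLie.{u}) {r p : ℕ} [Fact r.Prime] [hp : Fact p.Prime] (hp2 : p ≠ 2) (hpr : p ≠ r)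
    (h7 : 7 ≤ p ∨ r ≠ 2) (hna : ¬ IsMulCommutative G) (hG : IsLieTypeChar r G) {M : Subgroup G} (hM : M ≠ ⊤)
    (hM1 : M ≠ ⊥) {A : Subgroup (MulAut G)} (hA : (MulAut.conj : G →* MulAut G).range ≤ A) {P : Subgroup (MulAut G)}
    (hP : IsPGroup p ↥P) (hPA : P ≤ A) (hPM : P ≤ Stab M)
    (hmax : ∀ Q : Subgroup (MulAut G), IsPGroup p ↥Q → P ≤ Q → Q ≤ A → Q ≤ Stab M → Q ≤ P)
    (hNP : A ⊓ normalizer (P : Set (MulAut G)) ≤ Stab M)
    (hCP : ∀ x ∈ P, orderOf x = p → A ⊓ centralizer ({x} : Set (MulAut G)) ≤ Stab M)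
    (hcyc : ¬ IsCyclic ↥P) : False := by
  set H : Subgroup ↥A := (Stab M).subgroupOf A with hH
  have hHt : H ≠ ⊤ := by
    intro h
    have h1 : A ≤ Stab M := subgroupOf_eq_top.1 h
    rcases (normal_of_inn_le (hA.trans h1)).eq_bot_or_eq_top with h2 | h2
    · exact hM1 h2
    · exact hM h2
  have hPne : P ≠ ⊥ := by
    rintro rfl
    exact hcyc inferInstance
  -- the Sylow subgroup of `H`
  set P1 : Subgroup ↥A := P.subgroupOf A with hP1
  have hP1H : P1 ≤ H := fun x hx => mem_subgroupOf.2 (hPM (mem_subgroupOf.1 hx))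
  have hP1p : IsPGroup p ↥P1 := hP.comap_subtype
  have hP2p : IsPGroup p ↥(P1.subgroupOf H) := hP1p.comap_subtype
  obtain ⟨S, hS⟩ := hP2p.exists_le_sylow
  have hSm : ((S : Subgroup ↥H).map H.subtype) = P1 := by
    apply le_antisymm
    · have h1 : ((S : Subgroup ↥H).map H.subtype).map A.subtype ≤ P := by
        refine hmax _ ((S.isPGroup'.map _).map _) ?_ ?_ ?_
        · intro x hx
          have hx1 : (⟨x, hPA hx⟩ : ↥A) ∈ P1 := mem_subgroupOf.2 hx
          have hx2 : (⟨⟨x, hPA hx⟩, hP1H hx1⟩ : ↥H) ∈ (S : Subgroup ↥H) := hS (mem_subgroupOf.2 hx1)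
          exact ⟨_, ⟨_, hx2, rfl⟩, rfl⟩
        · exact map_subtype_le _
        · rintro _ ⟨y, ⟨z, -, rfl⟩, rfl⟩
          exact mem_subgroupOf.1 z.2
      intro x hx
      exact mem_subgroupOf.2 (h1 ⟨x, hx, rfl⟩)
    · intro x hx
      exact ⟨⟨x, hP1H hx⟩, hS (mem_subgroupOf.2 hx), rfl⟩
  have hctrl : H240.StrongP.Ctrl p H := by
    refine H240.StrongP.ctrl_of_centralizers S ?_ ?_
    · rw [hSm]
      intro x hx hxo y hy
      rw [mem_centralizer_singleton_iff] at hy
      exact mem_subgroupOf.2 (hCP x (mem_subgroupOf.1 hx) (by rw [← hxo, Subgroup.orderOf_coe])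
        ⟨y.2, mem_centralizer_singleton_iff.2 (congrArg Subtype.val hy)⟩)
    · rw [hSm]
      intro y hy
      refine mem_subgroupOf.2 (hNP ⟨y.2, mem_normalizer_iff.2 fun x => ?_⟩)
      have key : ∀ z : ↥A, z ∈ normalizer (P1 : Set ↥A) → ∀ x ∈ P, (z : MulAut G) * x * (z : MulAut G)⁻¹ ∈ P := by
        intro z hz x hx
        exact mem_subgroupOf.1 ((mem_normalizer_iff.1 hz ⟨x, hPA hx⟩).1 (mem_subgroupOf.2 hx))
      refine ⟨key y hy x, fun h => ?_⟩
      have h1 := key y⁻¹ (inv_mem hy) _ h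
      have h2 : ((y⁻¹ : ↥A) : MulAut G) * ((y : MulAut G) * x * (y : MulAut G)⁻¹) * ((y⁻¹ : ↥A) : MulAut G)⁻¹ = x := by
        rw [Subgroup.coe_inv]; group
      rwa [h2] at h1
  have hd : p ∣ Nat.card ↥H := by
    have h1 : p ∣ Nat.card ↥P := by
      obtain ⟨n, hn⟩ := IsPGroup.iff_card.1 hP
      rcases Nat.eq_zero_or_pos n with h0 | h0
      · rw [h0, pow_zero] at hn
        exact absurd (Subgroup.card_eq_one.1 hn) hPne
      · rw [hn]
        exact dvd_pow_self p h0.ne'
    have h2 : Nat.card ↥P = Nat.card ↥P1 := (Nat.card_congr (subgroupOfEquivOfLe hPA).toEquiv).symm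
    rw [h2] at h1
    exact h1.trans (card_dvd_of_le hP1H)
  have hSE := H240.StrongP.stronglyP_of_ctrl hHt hd hctrl
  have e := innEquiv hna hA
  have hs : IsSimpleGroup ↥(InnIn A) := by
    have : Nontrivial ↥(InnIn A) := e.symm.surjective.nontrivial
    exact IsSimpleGroup.isSimpleGroup_of_surjective e.toMonoidHom e.surjective
  have hn : ¬ IsMulCommutative ↥(InnIn A) := by
    intro h
    apply hna
    refine ⟨⟨fun a b => ?_⟩⟩
    apply e.injective
    rw [map_mul, map_mul]
    exact h.is_comm.comm _ _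
  have hfin := hN r p hp2 hpr h7 ↥A (InnIn A) inferInstance hs hn (centralizer_innIn hna hA) (lie_congr e hG) H hSE
  obtain ⟨T, hT⟩ := hP1p.exists_le_sylow
  have h1 := hfin T
  apply hcyc
  have h2 : IsCyclic ↥P1 := isCyclic_of_injective (inclusion hT) (inclusion_injective hT)
  exact isCyclic_of_surjective (subgroupOfEquivOfLe hPA).toMonoidHom (subgroupOfEquivOfLe hPA).surjective

/-- a noncyclic elementary abelian group is not in a cyclic one -/
theorem not_cyclic_of_elab {X : Type*} [Group X] {p : ℕ} [hp : Fact p.Prime] {E P : Subgroup X}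
    (hE : IsElementaryAbelian p E) (hc : p ^ 2 ≤ Nat.card E) (hEP : E ≤ P) : ¬ IsCyclic ↥P := by
  intro h
  have h1 : IsCyclic ↥E := isCyclic_of_injective (inclusion hEP) (inclusion_injective hEP)
  obtain ⟨e, he⟩ := h1.exists_generator
  have h2 : Nat.card ↥E = orderOf e := by
    rw [← Nat.card_zpowers, (Subgroup.eq_top_iff' _).2 he, Nat.card_congr Subgroup.topEquiv.toEquiv]
  have h3 : orderOf e ∣ p := orderOf_dvd_of_pow_eq_one (Subtype.ext (hE.2 e e.2))
  have h4 := Nat.le_of_dvd hp.out.pos h3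
  have h5 := hp.out.one_lt
  rw [h2] at hc
  nlinarith

omit [Finite G] in
/-- an inner automorphism commuting with `φ` comes from a fixed point of `φ` -/
theorem fixed_of_commute (hna : ¬ IsMulCommutative G) {φ : MulAut G} {g : G}
    (h : φ * MulAut.conj g = MulAut.conj g * φ) : φ g = g := by
  apply conj_injective (center_eq_bot hna)
  rw [← conj_smul, h, mul_inv_cancel_right]

/-- **The rank 2 criterion** : `|E| = p ^ 2` and all the elements of order `p` of the `p`-subgroups of `Inn G * E` above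
`E` lie in `E`. -/
theorem gam_of_omega (hN : NoSPLie.{u}) {r p : ℕ} [Fact r.Prime] [hp : Fact p.Prime] (hp2 : p ≠ 2) (hpr : p ≠ r)
    (h7 : 7 ≤ p ∨ r ≠ 2) (hna : ¬ IsMulCommutative G) (hG : IsLieTypeChar r G) {E : Subgroup (MulAut G)}
    (hE : IsElementaryAbelian p E) (hc : Nat.card E = p ^ 2)
    (hP : ∀ P : Subgroup (MulAut G), IsPGroup p ↥P → E ≤ P → P ≤ (MulAut.conj : G →* MulAut G).range ⊔ E →
      ∀ x ∈ P, x ^ p = 1 → x ∈ E) : Gam p E = ⊤ := by
  by_contra hM
  set A : Subgroup (MulAut G) := (MulAut.conj : G →* MulAut G).range ⊔ E with hA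
  have hEA : E ≤ A := le_sup_right
  -- a Sylow `p`-subgroup of `A` above `E`
  obtain ⟨T, hT⟩ := ((elab_isPGroup hE).comap_subtype (K := A)).exists_le_sylow
  set P : Subgroup (MulAut G) := (T : Subgroup ↥A).map A.subtype with hPdef
  have hPp : IsPGroup p ↥P := T.isPGroup'.map _
  have hPA : P ≤ A := map_subtype_le _
  have hEP : E ≤ P := fun e he => ⟨⟨e, hEA he⟩, hT (mem_subgroupOf.2 he), rfl⟩
  have hmaxA : ∀ Q : Subgroup (MulAut G), IsPGroup p ↥Q → P ≤ Q → Q ≤ A → Q ≤ P := by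
    intro Q hQ hPQ hQA q hq
    have h1 : (T : Subgroup ↥A) ≤ Q.subgroupOf A := fun t ht => mem_subgroupOf.2 (hPQ ⟨t, ht, rfl⟩)
    have h2 := T.is_maximal' (hQ.comap_subtype (K := A)) h1
    have h3 : (⟨q, hQA hq⟩ : ↥A) ∈ (T : Subgroup ↥A) := by
      rw [← h2]
      exact mem_subgroupOf.2 hq
    exact ⟨_, h3, rfl⟩
  have hnorm : normalizer (P : Set (MulAut G)) ≤ normalizer (E : Set (MulAut G)) := by
    intro y hy
    have key : ∀ z ∈ normalizer (P : Set (MulAut G)), ∀ e ∈ E, z * e * z⁻¹ ∈ E := by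
      intro z hz e he
      refine hP P hPp hEP hPA _ ((mem_normalizer_iff.1 hz e).1 (hEP he)) ?_
      rw [conj_pow, hE.2 e he]
      group
    rw [mem_normalizer_iff]
    refine fun e => ⟨key y hy e, fun h => ?_⟩
    have h1 := key y⁻¹ (inv_mem hy) _ h
    have h2 : y⁻¹ * (y * e * y⁻¹) * y⁻¹⁻¹ = e := by group
    rwa [h2] at h1
  have hstab := normalizer_le_stab p (E := E)
  refine false_of_ctrl hN hp2 hpr h7 hna hG hM (gam_ne_bot hE hc.ge) le_sup_left hPp hPA
    (le_normalizer.trans (hnorm.trans hstab)) (fun Q hQ h1 h2 _ => hmaxA Q hQ h1 h2)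
    (inf_le_right.trans (hnorm.trans hstab)) ?_ (not_cyclic_of_elab hE hc.ge hEP)
  rintro x hx hxo a ⟨haA, hax⟩
  have hxE : x ∈ E := hP P hPp hEP hPA x hx (by rw [← hxo, pow_orderOf_eq_one])
  have hx1 : x ≠ 1 := by
    rintro rfl
    rw [orderOf_one] at hxo
    exact hp.out.one_lt.ne hxo
  have hn := range_conj_normal (K := G)
  obtain ⟨i, hi, e, he, rfl⟩ := Subgroup.mem_sup_of_normal_left.1 haA
  obtain ⟨g, rfl⟩ := hi
  have hex : e * x = x * e := congrArg Subtype.val (hE.1.1.1 ⟨e, he⟩ ⟨x, hxE⟩)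
  have hax' := mem_centralizer_singleton_iff.1 hax
  have hgx : x * MulAut.conj g = MulAut.conj g * x := by
    have h1 : MulAut.conj g * x * e = x * MulAut.conj g * e := by
      rw [mul_assoc, ← hex, ← mul_assoc, hax', mul_assoc]
    exact (mul_right_cancel h1).symm
  have h2 := fixed_of_commute hna hgx
  exact (Stab (Gam p E)).mul_mem (conj_mem_stab (mem_Gam_of_fixed hE hc hxE hx1 h2)) (le_stab_gam he)

end main

end Cfsg.Agent.H522.Gen
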