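import Cfsg.Agent.H522.Gen.Emb
import Cfsg.Agent.S0127
import Cfsg.Prelude.Def_EvenType

/-!
# S2187: corollaries of the strongly `p`-embedded criterion

* `gam_of_cyclic` : the Sylow `p`-subgroups of `G` cyclic, `|E| = p ^ 2`, `E` contains an inner automorphism `≠ 1`
  ⟹ `Gam p E = ⊤`;
* `gen_of_cyclic` : the Sylow `p`-subgroups of `G` cyclic, `Aut G` of `p`-rank at most `2` ⟹ `Gen p G`;
* `gam_of_abelian` : the Sylow `p`-subgroups of `G` abelian of rank at most `2`, `E ≤ Inn G` ⟹ `Gam p E = ⊤`.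
-/

set_option autoImplicit false

namespace Cfsg.Agent.H522.Gen

open Cfsg Subgroup H818.Gen Cfsg.Agent.FixBN.BTheorem

universe u

section pgroup

variable {X : Type*} [Group X] {p : ℕ} [hp : Fact p.Prime]

/-- odd `p`: a `p`-group `P = C E` with `C` cyclic and normal, `E` elementary abelian of order `p ^ 2` meeting `C`: the elements
of order `p` of `P` lie in `E` -/
theorem mem_of_cyclic_normal (hp2 : p ≠ 2) {P N E : Subgroup X} [Finite ↥P] (hP : IsPGroup p ↥P) [N.Normal]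
    (hC : IsCyclic ↥(N ⊓ P)) (hE : IsElementaryAbelian p E) (hc : Nat.card E = p ^ 2) (hEP : E ≤ P)
    (hEN : E ⊓ N ≠ ⊥) (hPNE : P ≤ N ⊔ E) {x : X} (hx : x ∈ P) (hxp : x ^ p = 1) : x ∈ E := by
  set C : Subgroup ↥P := (N ⊓ P).subgroupOf P with hCdef
  have hfE : Finite ↥E := Finite.of_injective _ (inclusion_injective hEP)
  have hCcyc : IsCyclic ↥C := isCyclic_of_surjective (subgroupOfEquivOfLe (inf_le_right : N ⊓ P ≤ P)).symm.toMonoidHom
    (subgroupOfEquivOfLe (inf_le_right : N ⊓ P ≤ P)).symm.surjective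
  have hCeq : C = N.subgroupOf P := by
    rw [hCdef, inf_subgroupOf_right]
  have hCn : C.Normal := by rw [hCeq]; infer_instance
  -- `|E ⊓ N| = p`
  have hncyc : ¬ IsCyclic ↥P := not_cyclic_of_elab hE hc.ge hEP
  have hEN1 : Nat.card ↥(E ⊓ N) = p := by
    have h1 : Nat.card ↥(E ⊓ N) ∣ p ^ 2 := by rw [← hc]; exact card_dvd_of_le inf_le_left
    obtain ⟨k, hk, hk'⟩ := (Nat.dvd_prime_pow hp.out).1 h1
    interval_cases k
    · rw [pow_zero] at hk'
      exact absurd (Subgroup.card_eq_one.1 hk') hEN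
    · rw [hk', pow_one]
    · exfalso
      have h2 : E ⊓ N ≤ N ⊓ P := fun y hy => ⟨hy.2, hEP hy.1⟩
      exact not_cyclic_of_elab (p := p) (P := N ⊓ P) (elab_mono inf_le_left hE) hk'.ge h2 hC
  -- the index of `C`
  have hidx : C.index = p := by
    have h1 : C.index = N.relIndex P := by rw [hCeq]; rfl
    have h2 : N.relIndex P = N.relIndex E := by
      apply le_antisymm
      · have h3 : N.relIndex P ≤ N.relIndex (N ⊔ E) := by
          apply relIndex_le_of_le_right hPNE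
          rw [relIndex_sup_left]
          intro h0
          have : N.relIndex E ∣ Nat.card E := by
            exact (N.subgroupOf E).index_dvd_card
          rw [h0, hc, zero_dvd_iff] at this
          exact hp.out.ne_zero (pow_eq_zero_iff (n := 2) (by norm_num) |>.1 this)
        rwa [relIndex_sup_left] at h3
      · apply relIndex_le_of_le_right hEP
        intro h0
        have : N.relIndex P ∣ Nat.card P := (N.subgroupOf P).index_dvd_card
        rw [h0, zero_dvd_iff] at this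
        exact Nat.card_pos.ne' this
    rw [h1, h2]
    have h3 := (N.subgroupOf E).card_mul_index
    have h4 : Nat.card ↥(N.subgroupOf E) = p := by
      rw [← inf_subgroupOf_left, Nat.card_congr (subgroupOfEquivOfLe (inf_le_left : E ⊓ N ≤ E)).toEquiv]
      exact hEN1
    rw [h4, hc, pow_two] at h3
    exact Nat.eq_of_mul_eq_mul_left hp.out.pos h3
  obtain ⟨h1, h2⟩ := S0127.result hp2 hP hncyc C hCcyc hidx
  -- the closure is `E`
  have h3 : E.subgroupOf P ≤ closure {x : ↥P | x ^ p = 1} := fun e he =>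
    subset_closure (Subtype.ext (hE.2 e (mem_subgroupOf.1 he)))
  have h4 : E.subgroupOf P = closure {x : ↥P | x ^ p = 1} := by
    refine eq_of_le_of_card_ge h3 ?_
    rw [h2, Nat.card_congr (subgroupOfEquivOfLe hEP).toEquiv, hc]
  have h5 : (⟨x, hx⟩ : ↥P) ∈ closure {x : ↥P | x ^ p = 1} := subset_closure (Subtype.ext hxp)
  rw [← h4] at h5
  exact mem_subgroupOf.1 h5

/-- the product of two commuting elementary abelian groups -/
theorem elab_sup {A B : Subgroup X} (hA : IsElementaryAbelian p A) (hB : IsElementaryAbelian p B)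
    (h : ∀ a ∈ A, ∀ b ∈ B, a * b = b * a) : IsElementaryAbelian p (A ⊔ B : Subgroup X) := by
  have a1 : A ≤ centralizer (A : Set X) := fun a ha => mem_centralizer_iff.2 fun b hb =>
    congrArg Subtype.val (hA.1.1.1 ⟨b, hb⟩ ⟨a, ha⟩)
  have a2 : B ≤ centralizer (B : Set X) := fun a ha => mem_centralizer_iff.2 fun b hb =>
    congrArg Subtype.val (hB.1.1.1 ⟨b, hb⟩ ⟨a, ha⟩)
  have a3 : B ≤ centralizer (A : Set X) := fun b hb => mem_centralizer_iff.2 fun a ha => h a ha b hb
  have a4 : A ≤ centralizer (B : Set X) := Subgroup.le_centralizer_iff.1 a3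
  have a5 : A ≤ centralizer ((A ⊔ B : Subgroup X) : Set X) := Subgroup.le_centralizer_iff.1 (sup_le a1 a3)
  have a6 : B ≤ centralizer ((A ⊔ B : Subgroup X) : Set X) := Subgroup.le_centralizer_iff.1 (sup_le a4 a2)
  have a7 := sup_le a5 a6
  have hcomm : ∀ a ∈ A ⊔ B, ∀ b ∈ A ⊔ B, a * b = b * a := fun a ha b hb => mem_centralizer_iff.1 (a7 hb) a ha
  let D : Subgroup X :=
    { carrier := {y | y ∈ A ⊔ B ∧ y ^ p = 1}
      one_mem' := ⟨(A ⊔ B).one_mem, one_pow p⟩
      mul_mem' := fun {a b} ha hb => ⟨(A ⊔ B).mul_mem ha.1 hb.1, by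
        rw [(show Commute a b from hcomm a ha.1 b hb.1).mul_pow, ha.2, hb.2, one_mul]⟩
      inv_mem' := fun {a} ha => ⟨(A ⊔ B).inv_mem ha.1, by rw [inv_pow, ha.2, inv_one]⟩ }
  have hD : A ⊔ B ≤ D := sup_le (fun a ha => ⟨(le_sup_left : A ≤ A ⊔ B) ha, hA.2 a ha⟩)
    (fun a ha => ⟨(le_sup_right : B ≤ A ⊔ B) ha, hB.2 a ha⟩)
  exact ⟨⟨⟨fun a b => Subtype.ext (hcomm a a.2 b b.2)⟩⟩, fun a ha => (hD ha).2⟩

theorem elab_zpowers {c : X} (hc : c ^ p = 1) : IsElementaryAbelian p (zpowers c) := by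
  refine ⟨inferInstance, ?_⟩
  rintro _ ⟨k, rfl⟩
  show (c ^ k) ^ p = 1
  rw [← zpow_natCast, ← zpow_mul, mul_comm, zpow_mul, zpow_natCast, hc, one_zpow]

end pgroup

section main

variable {G : Type u} [Group G] [Finite G] [IsSimpleGroup G]

/-- the `p`-subgroups of `Inn G` are cyclic -/
theorem cyclic_inn (hna : ¬ IsMulCommutative G) {p : ℕ} [hp : Fact p.Prime]
    (hcyc : ∀ P : Sylow p G, IsCyclic ↥(P : Subgroup G)) {Q : Subgroup (MulAut G)} (hQ : IsPGroup p ↥Q)
    (hQI : Q ≤ (MulAut.conj : G →* MulAut G).range) : IsCyclic ↥Q := by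
  have hinj := conj_injective (center_eq_bot hna)
  have h1 : IsPGroup p ↥(Q.comap (MulAut.conj : G →* MulAut G)) := hQ.comap_of_injective _ hinj
  obtain ⟨P, hP⟩ := h1.exists_le_sylow
  have h2 := hcyc P
  have h3 : IsCyclic ↥(Q.comap (MulAut.conj : G →* MulAut G)) := isCyclic_of_injective (inclusion hP) (inclusion_injective hP)
  have h4 : Q = (Q.comap (MulAut.conj : G →* MulAut G)).map (MulAut.conj : G →* MulAut G) :=
    (map_comap_eq_self hQI).symm
  rw [h4]
  exact isCyclic_of_surjective ((MulAut.conj : G →* MulAut G).subgroupMap _)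
    ((MulAut.conj : G →* MulAut G).subgroupMap_surjective _)

/-- **cyclic Sylow subgroups** -/
theorem gam_of_cyclic (hN : NoSPLie.{u}) {r p : ℕ} [Fact r.Prime] [hp : Fact p.Prime] (hp2 : p ≠ 2) (hpr : p ≠ r)
    (h7 : 7 ≤ p ∨ r ≠ 2) (hna : ¬ IsMulCommutative G) (hG : IsLieTypeChar r G)
    (hcyc : ∀ P : Sylow p G, IsCyclic ↥(P : Subgroup G)) {E : Subgroup (MulAut G)}
    (hE : IsElementaryAbelian p E) (hc : Nat.card E = p ^ 2) (hEI : E ⊓ (MulAut.conj : G →* MulAut G).range ≠ ⊥) :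
    Gam p E = ⊤ := by
  have hn := range_conj_normal (K := G)
  refine gam_of_omega hN hp2 hpr h7 hna hG hE hc fun P hP hEP hPA x hx hxp => ?_
  exact mem_of_cyclic_normal hp2 hP (N := (MulAut.conj : G →* MulAut G).range)
    (cyclic_inn hna hcyc (hP.to_le inf_le_right) inf_le_left) hE hc hEP hEI hPA hx hxp

/-- **cyclic Sylow subgroups, all `E`** -/
theorem gen_of_cyclic (hN : NoSPLie.{u}) {r p : ℕ} [Fact r.Prime] [hp : Fact p.Prime] (hp2 : p ≠ 2) (hpr : p ≠ r)
    (h7 : 7 ≤ p ∨ r ≠ 2) (hna : ¬ IsMulCommutative G) (hG : IsLieTypeChar r G)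
    (hcyc : ∀ P : Sylow p G, IsCyclic ↥(P : Subgroup G)) (hrk : PRankLE p 2 (MulAut G)) : Gen p G := by
  intro E hE hc
  by_cases hpG : p ∣ Nat.card G
  swap
  · rw [eq_top_iff]
    exact le_Gam_of_coprime hE hc (by rwa [Nat.card_congr Subgroup.topEquiv.toEquiv]) fun _ _ _ _ => mem_top _
  have hcE : Nat.card E = p ^ 2 := le_antisymm (hrk E hE.1 hE.2) hc
  refine gam_of_cyclic hN hp2 hpr h7 hna hG hcyc hE hcE ?_
  -- a fixed point of order `p`
  obtain ⟨Q, hQp, hQ1⟩ : ∃ g : G, orderOf g = p ∧ ∀ φ ∈ E, φ g = g := by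
    let Fx : Subgroup G := CF E
    have h1 := (elab_isPGroup hE).card_modEq_card_fixedPoints G
    have h2 : Nat.card (MulAction.fixedPoints ↥E G) = Nat.card ↥Fx := by
      refine Nat.card_congr (Equiv.subtypeEquivRight fun g => ?_)
      constructor
      · intro h φ hφ
        exact h ⟨φ, hφ⟩
      · rintro h ⟨φ, hφ⟩
        exact h φ hφ
    have h3 : p ∣ Nat.card ↥Fx := by
      rw [← h2]
      exact (Nat.modEq_zero_iff_dvd.1 (h1.symm.trans (Nat.modEq_zero_iff_dvd.2 hpG)))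
    obtain ⟨g, hg⟩ := exists_prime_orderOf_dvd_card' p h3
    exact ⟨g, by rw [Subgroup.orderOf_coe]; exact hg, fun φ hφ => g.2 φ hφ⟩
  -- `E ⊔ ⟨g⟩` is elementary abelian
  have hinj := conj_injective (center_eq_bot hna)
  set c : MulAut G := MulAut.conj Q with hcdef
  have hcc : ∀ e ∈ E, e * c = c * e := by
    intro e he
    have := conj_smul e Q
    rw [hQ1 e he] at this
    rw [← mul_inv_eq_iff_eq_mul]
    exact this
  have hcp : c ^ p = 1 := by
    rw [hcdef, ← map_pow, ← hQp, pow_orderOf_eq_one, map_one]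
  have hc1 : c ≠ 1 := by
    intro h
    have : Q = 1 := hinj (by rw [map_one]; exact h)
    rw [this, orderOf_one] at hQp
    exact hp.out.one_lt.ne hQp
  by_cases hcE' : c ∈ E
  · intro h
    have h1 : c ∈ E ⊓ (MulAut.conj : G →* MulAut G).range := ⟨hcE', ⟨Q, rfl⟩⟩
    rw [h, mem_bot] at h1
    exact hc1 h1
  · exfalso
    have hZ : ∀ e ∈ E, ∀ z ∈ zpowers c, e * z = z * e := by
      intro e he z hz
      obtain ⟨k, rfl⟩ := mem_zpowers_iff.1 hz
      exact (show Commute e c from hcc e he).zpow_right k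
    have hel := elab_sup hE (elab_zpowers hcp) hZ
    have h1 := hrk (E ⊔ zpowers c) hel.1 hel.2
    have h2 : E = E ⊔ zpowers c := eq_of_le_of_card_ge le_sup_left (by rw [hcE]; exact h1)
    apply hcE'
    rw [h2]
    exact (le_sup_right : zpowers c ≤ E ⊔ zpowers c) (mem_zpowers c)

/-- **abelian Sylow subgroups of rank 2, `E` inner** -/
theorem gam_of_abelian (hN : NoSPLie.{u}) {r p : ℕ} [Fact r.Prime] [hp : Fact p.Prime] (hp2 : p ≠ 2) (hpr : p ≠ r)
    (h7 : 7 ≤ p ∨ r ≠ 2) (hna : ¬ IsMulCommutative G) (hG : IsLieTypeChar r G)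
    (hab : ∀ P : Sylow p G, IsMulCommutative ↥(P : Subgroup G)) (hrk : PRankLE p 2 G) {E : Subgroup (MulAut G)}
    (hE : IsElementaryAbelian p E) (hc : p ^ 2 ≤ Nat.card E) (hEI : E ≤ (MulAut.conj : G →* MulAut G).range) :
    Gam p E = ⊤ := by
  have hinj := conj_injective (center_eq_bot hna)
  -- the rank of `Inn G`
  have hrkI : ∀ D : Subgroup (MulAut G), D ≤ (MulAut.conj : G →* MulAut G).range → IsElementaryAbelian p D →
      Nat.card D ≤ p ^ 2 := by
    intro D hD hDe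
    have h1 : IsElementaryAbelian p (D.comap (MulAut.conj : G →* MulAut G)) := by
      refine ⟨⟨⟨?_⟩⟩, ?_⟩
      · rintro ⟨a, ha⟩ ⟨b, hb⟩
        apply Subtype.ext
        apply hinj
        show MulAut.conj (a * b) = MulAut.conj (b * a)
        rw [map_mul, map_mul]
        exact congrArg Subtype.val (hDe.1.1.1 ⟨_, ha⟩ ⟨_, hb⟩)
      · intro a ha
        apply hinj
        rw [map_pow, map_one]
        exact hDe.2 _ ha
    have h2 := hrk _ h1.1 h1.2
    have h3 : D = (D.comap (MulAut.conj : G →* MulAut G)).map (MulAut.conj : G →* MulAut G) :=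
      (map_comap_eq_self hD).symm
    rw [h3]
    exact (Nat.card_congr ((D.comap (MulAut.conj : G →* MulAut G)).equivMapOfInjective _ hinj).toEquiv).symm.le.trans h2
  have hcE : Nat.card E = p ^ 2 := le_antisymm (hrkI E hEI hE) hc
  refine gam_of_omega hN hp2 hpr h7 hna hG hE hcE fun P hP hEP hPA x hx hxp => ?_
  have hPI : P ≤ (MulAut.conj : G →* MulAut G).range := hPA.trans (sup_le le_rfl hEI)
  -- `P` is commutative
  have hPc : ∀ a ∈ P, ∀ b ∈ P, a * b = b * a := by
    have h1 : IsPGroup p ↥(P.comap (MulAut.conj : G →* MulAut G)) := hP.comap_of_injective _ hinj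
    obtain ⟨S, hS⟩ := h1.exists_le_sylow
    intro a ha b hb
    obtain ⟨a', rfl⟩ := hPI ha
    obtain ⟨b', rfl⟩ := hPI hb
    rw [← map_mul, ← map_mul]
    exact congrArg _ (congrArg Subtype.val ((hab S).1.1 ⟨a', hS ha⟩ ⟨b', hS hb⟩))
  -- the elements of order `p` of `P`
  let D : Subgroup (MulAut G) :=
    { carrier := {y | y ∈ P ∧ y ^ p = 1}
      one_mem' := ⟨P.one_mem, one_pow p⟩
      mul_mem' := fun {a b} ha hb => ⟨P.mul_mem ha.1 hb.1, by
        rw [(show Commute a b from hPc a ha.1 b hb.1).mul_pow, ha.2, hb.2, one_mul]⟩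
      inv_mem' := fun {a} ha => ⟨P.inv_mem ha.1, by rw [inv_pow, ha.2, inv_one]⟩ }
  have hD : IsElementaryAbelian p D := ⟨⟨⟨fun a b => Subtype.ext (hPc a a.2.1 b b.2.1)⟩⟩, fun a ha => ha.2⟩
  have hED : E ≤ D := fun e he => ⟨hEP he, hE.2 e he⟩
  have h1 : E = D := eq_of_le_of_card_ge hED (by rw [hcE]; exact hrkI D (fun y hy => hPI hy.1) hD)
  rw [h1]
  exact ⟨hx, hxp⟩

end main

end Cfsg.Agent.H522.Gen
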